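import Cfsg.Agent.Sigma.LiftEl
import Cfsg.Agent.CTwoTab.Fi22

/-!
# `3 ∈ σ(Fi22)` (helper6)

The centralizer `2.U6(2)` of a transposition contains a subgroup of index 2 of a Sylow 2-subgroup and an elementary
abelian subgroup of order `81`.
-/

set_option autoImplicit false

namespace Cfsg.Agent.Sigma.Fi22

open Cfsg Subgroup Cfsg.Agent.CTwoTab.Fi22
open Cfsg.Agent.StdFi22.MainFi22 (bas)

theorem fact_two_pow {k m : ℕ} (hm : ¬ 2 ∣ m) : (2 ^ k * m).factorization 2 = k := by
  have h0 : m ≠ 0 := by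
    rintro rfl
    exact hm (dvd_zero 2)
  rw [Nat.factorization_mul (by positivity) h0, Finsupp.add_apply, Nat.prime_two.factorization_pow,
    Finsupp.single_eq_same, Nat.factorization_eq_zero_of_not_dvd hm, add_zero]

theorem wit_three : Wit 3 Spor.Fi22 := by
  have := finite
  have : Fact (Nat.Prime 3) := ⟨Nat.prime_three⟩
  obtain ⟨T', a, b, R, hA⟩ := Cfsg.Agent.OddHalf.D8.Fi22.exists_all (K := Spor.Fi22) ⟨MulEquiv.refl _⟩
  have F := hA.facts
  obtain ⟨K, i1, i2, hK, ⟨e⟩⟩ := F.quo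
  let C : Subgroup Spor.Fi22 := centralizer ({a} : Set Spor.Fi22)
  let π : ↥C →* PSU 6 K 2 := e.toMonoidHom.comp (QuotientGroup.mk' (center ↥C))
  have hπ : Function.Surjective π := e.surjective.comp (QuotientGroup.mk'_surjective _)
  have hker : π.ker = center ↥C := by
    ext x
    rw [MonoidHom.mem_ker]
    change e (QuotientGroup.mk' (center ↥C) x) = 1 ↔ _
    rw [map_eq_one_iff e e.injective, QuotientGroup.mk'_apply, QuotientGroup.eq_one_iff]
  have hk : ¬ 3 ∣ Nat.card π.ker := by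
    rw [hker, card_center F]
    norm_num
  obtain ⟨A, hA1, hA2, hA3⟩ := exists_torus_six hK
  obtain ⟨E, hE1, hE2, hE3⟩ := exists_lift π hπ hk hA1 hA2
  have hNC : C ≤ normalizer ((zpowers a : Subgroup Spor.Fi22) : Set Spor.Fi22) := by
    intro x hx
    have hxa : x * a = a * x := mem_centralizer_singleton_iff.1 hx
    have h1 : ∀ n : ℤ, x * a ^ n * x⁻¹ = a ^ n := by
      intro n
      have : Commute x (a ^ n) := Commute.zpow_right (show Commute x a from hxa) n
      rw [this.eq, mul_inv_cancel_right]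
    rw [mem_normalizer_iff]
    intro y
    constructor
    · rintro ⟨n, rfl⟩
      exact ⟨n, (h1 n).symm⟩
    · rintro ⟨n, hn⟩
      refine ⟨n, ?_⟩
      have h2 : x * y * x⁻¹ = x * a ^ n * x⁻¹ := by rw [h1 n]; exact hn.symm
      exact (mul_left_cancel (mul_right_cancel h2)).symm
  have hG : (Nat.card Spor.Fi22).factorization 2 = 17 := by
    rw [F.card, show (64561751654400 : ℕ) = 2 ^ 17 * 492567075 by norm_num]
    exact fact_two_pow (by norm_num)
  have hC : (Nat.card C).factorization 2 = 16 := by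
    rw [card_cent F, show (18393661440 : ℕ) = 2 ^ 16 * 280665 by norm_num]
    exact fact_two_pow (by norm_num)
  obtain ⟨S, hS⟩ := exists_relIndex_le C hG hC
  have ha2 : orderOf a = 2 := orderOf_eq_prime (by rw [pow_two]; exact F.dd) F.d_ne
  refine ⟨S, zpowers a, E.map C.subtype, ?_, ?_, ?_, ?_, ?_, ?_, ?_⟩
  · exact IsPGroup.of_card (n := 1) (by rw [Nat.card_zpowers, ha2, pow_one])
  · rw [Ne, zpowers_eq_bot]
    exact F.d_ne
  · refine ⟨⟨?_⟩⟩
    rintro ⟨_, x, hx, rfl⟩ ⟨_, y, hy, rfl⟩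
    apply Subtype.ext
    have h1 : x * y = y * x := congrArg Subtype.val (hE1.is_comm.comm ⟨x, hx⟩ ⟨y, hy⟩)
    change (x : Spor.Fi22) * y = y * x
    exact congrArg Subtype.val h1
  · rintro _ ⟨x, hx, rfl⟩
    rw [← map_pow, hE2 x hx, map_one]
  · rw [card_map_of_injective C.subtype_injective, hE3, hA3]
  · exact (map_subtype_le _).trans hNC
  · have h1 : (normalizer ((zpowers a : Subgroup Spor.Fi22) : Set Spor.Fi22)).relIndex (S : Subgroup Spor.Fi22) ≤
        C.relIndex (S : Subgroup Spor.Fi22) := relIndex_le_of_le_left hNC index_ne_zero_of_finite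
    have h2 : C.relIndex (S : Subgroup Spor.Fi22) ≤ 2 := by omega
    exact h1.trans h2

/-- **The row `Fi22`.** -/
theorem wit {G : Type*} [Group G] (h : Spor.IsoFi22 G) : ∃ p, p.Prime ∧ p ≠ 2 ∧ Wit p G := by
  obtain ⟨e⟩ := h
  have := finite
  exact ⟨3, Nat.prime_three, by norm_num, wit_three.congr e.symm⟩

end Cfsg.Agent.Sigma.Fi22
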